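import Cfsg.Agent.Lib.ToddCox.O73O.Low
import Cfsg.Agent.Lib.ToddCox.Base
set_option autoImplicit false
set_option maxRecDepth 100000
namespace Cfsg.Agent.Lib.ToddCox.O73O

def baseL : List ℕ := [0, 1, 20, 31, 2, 3]

theorem word_one_of {ρ : PresentedGroup Cfsg.Agent.Lib.ToddCox.O73T.rels →* Equiv.Perm (Fin 364)}
    (hρ : ∀ r (i : Fin 364), ((ρ (PresentedGroup.mk Cfsg.Agent.Lib.ToddCox.O73T.rels r) i : Fin 364) : ℕ) = tabW Cfsg.Agent.Lib.ToddCox.O73T.tab (relW Cfsg.Agent.Lib.ToddCox.O73T.sg r) i)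
    (hinj : Function.Injective ρ) (hcard : Nat.card (PresentedGroup Cfsg.Agent.Lib.ToddCox.O73T.rels) = 4585351680)
    {w : List ℕ} (hw : ∀ a ∈ w, a < 8) (hb : ∀ b ∈ baseL, tabW Cfsg.Agent.Lib.ToddCox.O73T.tab w b = b) : wordVal gen w = 1 := by
  have hel : ∀ w ∈ L, ∀ i : Fin 364, (((fun w => ρ (wordVal gen w)) w i : Fin 364) : ℕ) = tabW Cfsg.Agent.Lib.ToddCox.O73T.tab w i :=
    fun w hw i => rep_word hρ hLT (hLm w hw) i
  have s0 : sgsG (fun w => ρ (wordVal gen w)) L 0 ≤ ρ.range := by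
    unfold sgsG
    rw [Subgroup.closure_le]
    rintro _ ⟨w, _, rfl⟩
    exact ⟨_, rfl⟩
  have cK0 : Nat.card ρ.range = 4585351680 := by
    rw [← hcard]
    exact Nat.card_congr (MonoidHom.ofInjective hinj).symm.toEquiv
  have hb0 : 0 < 364 := by norm_num
  have c0 : ∀ k, k < 364 → chkOrbPos Cfsg.Agent.Lib.ToddCox.O73T.tab L 0 0 364 364 (fun q => orbR (Nat.add 0 q)) k = true :=
    defs_of_bits 364 11 1 (by norm_num) (by
      intro j hj
      interval_cases j
      · exact lv0_0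
      )
  have hb1 : 1 < 364 := by norm_num
  have c1 : ∀ k, k < 243 → chkOrbPos Cfsg.Agent.Lib.ToddCox.O73T.tab L 8 1 243 364 (fun q => orbR (Nat.add 364 q)) k = true :=
    defs_of_bits 243 11 1 (by norm_num) (by
      intro j hj
      interval_cases j
      · exact lv1_0
      )
  have hb2 : 20 < 364 := by norm_num
  have c2 : ∀ k, k < 90 → chkOrbPos Cfsg.Agent.Lib.ToddCox.O73T.tab L 15 20 90 364 (fun q => orbR (Nat.add 607 q)) k = true :=
    defs_of_bits 90 11 1 (by norm_num) (by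
      intro j hj
      interval_cases j
      · exact lv2_0
      )
  have hb3 : 31 < 364 := by norm_num
  have c3 : ∀ k, k < 32 → chkOrbPos Cfsg.Agent.Lib.ToddCox.O73T.tab L 21 31 32 364 (fun q => orbR (Nat.add 697 q)) k = true :=
    defs_of_bits 32 11 1 (by norm_num) (by
      intro j hj
      interval_cases j
      · exact lv3_0
      )
  have hb4 : 2 < 364 := by norm_num
  have c4 : ∀ k, k < 9 → chkOrbPos Cfsg.Agent.Lib.ToddCox.O73T.tab L 26 2 9 364 (fun q => orbR (Nat.add 729 q)) k = true :=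
    defs_of_bits 9 11 1 (by norm_num) (by
      intro j hj
      interval_cases j
      · exact lv4_0
      )
  have hb5 : 3 < 364 := by norm_num
  have c5 : ∀ k, k < 2 → chkOrbPos Cfsg.Agent.Lib.ToddCox.O73T.tab L 29 3 2 364 (fun q => orbR (Nat.add 738 q)) k = true :=
    defs_of_bits 2 11 1 (by norm_num) (by
      intro j hj
      interval_cases j
      · exact lv5_0
      )
  have l0 := level_bound_K hb0 hel c0 s0
  have s1 := sgs_le_fixP hb0 (by norm_num : 0 ≤ 8) hel fx0 s0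
  have l1 := level_bound_K hb1 hel c1 s1
  have s2 := sgs_le_fixP hb1 (by norm_num : 8 ≤ 15) hel fx1 s1
  have l2 := level_bound_K hb2 hel c2 s2
  have s3 := sgs_le_fixP hb2 (by norm_num : 15 ≤ 21) hel fx2 s2
  have l3 := level_bound_K hb3 hel c3 s3
  have s4 := sgs_le_fixP hb3 (by norm_num : 21 ≤ 26) hel fx3 s3
  have l4 := level_bound_K hb4 hel c4 s4
  have s5 := sgs_le_fixP hb4 (by norm_num : 26 ≤ 29) hel fx4 s4
  have l5 := level_bound_K hb5 hel c5 s5
  have s6 := sgs_le_fixP hb5 (by norm_num : 29 ≤ 30) hel fx5 s5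
  rw [cK0] at l0
  have p0 := l0
  have p1 := chain_mul p0 l1
  have p2 := chain_mul p1 l2
  have p3 := chain_mul p2 l3
  have p4 := chain_mul p3 l4
  have p5 := chain_mul p4 l5
  have hM : 4585351680 * _ ≤ 4585351680 := (by norm_num : 364*243*90*32*9*2 = 4585351680) ▸ p5
  have m0 : ρ (wordVal gen w) ∈ ρ.range := ⟨_, rfl⟩
  have m1 := (mem_fixP (x := ⟨0, hb0⟩)).mpr ⟨m0, Fin.ext (by rw [rep_word hρ hLT hw]; exact hb 0 (by decide +kernel))⟩
  have m2 := (mem_fixP (x := ⟨1, hb1⟩)).mpr ⟨m1, Fin.ext (by rw [rep_word hρ hLT hw]; exact hb 1 (by decide +kernel))⟩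
  have m3 := (mem_fixP (x := ⟨20, hb2⟩)).mpr ⟨m2, Fin.ext (by rw [rep_word hρ hLT hw]; exact hb 20 (by decide +kernel))⟩
  have m4 := (mem_fixP (x := ⟨31, hb3⟩)).mpr ⟨m3, Fin.ext (by rw [rep_word hρ hLT hw]; exact hb 31 (by decide +kernel))⟩
  have m5 := (mem_fixP (x := ⟨2, hb4⟩)).mpr ⟨m4, Fin.ext (by rw [rep_word hρ hLT hw]; exact hb 2 (by decide +kernel))⟩
  have m6 := (mem_fixP (x := ⟨3, hb5⟩)).mpr ⟨m5, Fin.ext (by rw [rep_word hρ hLT hw]; exact hb 3 (by decide +kernel))⟩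
  have h1 := eq_one_of_card_le (by norm_num) hM m6
  exact hinj (by rw [h1, map_one])

end Cfsg.Agent.Lib.ToddCox.O73O
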