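import Cfsg.Agent.Lib.ToddCox.O73O.Lv0
set_option autoImplicit false
set_option maxRecDepth 100000
namespace Cfsg.Agent.Lib.ToddCox.O73O

abbrev gen : ℕ → PresentedGroup Cfsg.Agent.Lib.ToddCox.O73T.rels := genP Cfsg.Agent.Lib.ToddCox.O73T.rels Cfsg.Agent.Lib.ToddCox.O73T.LT

theorem hLT : ∀ y, y < 8 → relW Cfsg.Agent.Lib.ToddCox.O73T.sg (Cfsg.Agent.Lib.ToddCox.O73T.LT.getD y 1) = [y] := by decide +kernel
theorem hLm : ∀ w ∈ L, ∀ a ∈ w, a < 8 := by decide +kernel
theorem low {ρ : PresentedGroup Cfsg.Agent.Lib.ToddCox.O73T.rels →* Equiv.Perm (Fin 364)}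
    (hρ : ∀ r (i : Fin 364), ((ρ (PresentedGroup.mk Cfsg.Agent.Lib.ToddCox.O73T.rels r) i : Fin 364) : ℕ) = tabW Cfsg.Agent.Lib.ToddCox.O73T.tab (relW Cfsg.Agent.Lib.ToddCox.O73T.sg r) i) :
    4585351680 ≤ Nat.card (sgsG (fun w => ρ (wordVal gen w)) L 0) := by
  have hel : ∀ w ∈ L, ∀ i : Fin 364, (((fun w => ρ (wordVal gen w)) w i : Fin 364) : ℕ) = tabW Cfsg.Agent.Lib.ToddCox.O73T.tab w i :=
    fun w hw i => rep_word hρ hLT (hLm w hw) i
  have h6 : 1 ≤ Nat.card (sgsG (fun w => ρ (wordVal gen w)) L 30) := sgsG_pos _ _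
  have c5 : ∀ k, k < 2 → chkOrbPos Cfsg.Agent.Lib.ToddCox.O73T.tab L 29 3 2 364 (fun q => orbR (Nat.add 738 q)) k = true :=
    defs_of_bits 2 11 1 (by norm_num) (by
      intro j hj
      interval_cases j
      · exact lv5_0
      )
  have h5 : 2 * 1 ≤ Nat.card (sgsG (fun w => ρ (wordVal gen w)) L 29) :=
    le_trans (Nat.mul_le_mul_left 2 h6) (level_bound (by norm_num) (by norm_num) hel fx5 c5)
  norm_num at h5
  have c4 : ∀ k, k < 9 → chkOrbPos Cfsg.Agent.Lib.ToddCox.O73T.tab L 26 2 9 364 (fun q => orbR (Nat.add 729 q)) k = true :=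
    defs_of_bits 9 11 1 (by norm_num) (by
      intro j hj
      interval_cases j
      · exact lv4_0
      )
  have h4 : 9 * 2 ≤ Nat.card (sgsG (fun w => ρ (wordVal gen w)) L 26) :=
    le_trans (Nat.mul_le_mul_left 9 h5) (level_bound (by norm_num) (by norm_num) hel fx4 c4)
  norm_num at h4
  have c3 : ∀ k, k < 32 → chkOrbPos Cfsg.Agent.Lib.ToddCox.O73T.tab L 21 31 32 364 (fun q => orbR (Nat.add 697 q)) k = true :=
    defs_of_bits 32 11 1 (by norm_num) (by
      intro j hj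
      interval_cases j
      · exact lv3_0
      )
  have h3 : 32 * 18 ≤ Nat.card (sgsG (fun w => ρ (wordVal gen w)) L 21) :=
    le_trans (Nat.mul_le_mul_left 32 h4) (level_bound (by norm_num) (by norm_num) hel fx3 c3)
  norm_num at h3
  have c2 : ∀ k, k < 90 → chkOrbPos Cfsg.Agent.Lib.ToddCox.O73T.tab L 15 20 90 364 (fun q => orbR (Nat.add 607 q)) k = true :=
    defs_of_bits 90 11 1 (by norm_num) (by
      intro j hj
      interval_cases j
      · exact lv2_0
      )
  have h2 : 90 * 576 ≤ Nat.card (sgsG (fun w => ρ (wordVal gen w)) L 15) :=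
    le_trans (Nat.mul_le_mul_left 90 h3) (level_bound (by norm_num) (by norm_num) hel fx2 c2)
  norm_num at h2
  have c1 : ∀ k, k < 243 → chkOrbPos Cfsg.Agent.Lib.ToddCox.O73T.tab L 8 1 243 364 (fun q => orbR (Nat.add 364 q)) k = true :=
    defs_of_bits 243 11 1 (by norm_num) (by
      intro j hj
      interval_cases j
      · exact lv1_0
      )
  have h1 : 243 * 51840 ≤ Nat.card (sgsG (fun w => ρ (wordVal gen w)) L 8) :=
    le_trans (Nat.mul_le_mul_left 243 h2) (level_bound (by norm_num) (by norm_num) hel fx1 c1)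
  norm_num at h1
  have c0 : ∀ k, k < 364 → chkOrbPos Cfsg.Agent.Lib.ToddCox.O73T.tab L 0 0 364 364 (fun q => orbR (Nat.add 0 q)) k = true :=
    defs_of_bits 364 11 1 (by norm_num) (by
      intro j hj
      interval_cases j
      · exact lv0_0
      )
  have h0 : 364 * 12597120 ≤ Nat.card (sgsG (fun w => ρ (wordVal gen w)) L 0) :=
    le_trans (Nat.mul_le_mul_left 364 h1) (level_bound (by norm_num) (by norm_num) hel fx0 c0)
  norm_num at h0
  exact h0
end Cfsg.Agent.Lib.ToddCox.O73O
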