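import Cfsg.Agent.Lib.ToddCox.O73O.OrbD
set_option autoImplicit false
set_option maxRecDepth 100000
namespace Cfsg.Agent.Lib.ToddCox.O73O
open Cfsg.Agent.Lib.ToddCox.O73T in
theorem lv0_0 : allBits (fun k => bif Nat.blt k 364 then chkOrbPos Cfsg.Agent.Lib.ToddCox.O73T.tab L 0 0 364 364 (fun q => orbR (Nat.add 0 q)) k else true) 11 0 = true := by decide +kernel
theorem fx0 : ∀ w ∈ L.drop 8, tabW Cfsg.Agent.Lib.ToddCox.O73T.tab w 0 = 0 := by decide +kernel
theorem lv1_0 : allBits (fun k => bif Nat.blt k 243 then chkOrbPos Cfsg.Agent.Lib.ToddCox.O73T.tab L 8 1 243 364 (fun q => orbR (Nat.add 364 q)) k else true) 11 0 = true := by decide +kernel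
theorem fx1 : ∀ w ∈ L.drop 15, tabW Cfsg.Agent.Lib.ToddCox.O73T.tab w 1 = 1 := by decide +kernel
theorem lv2_0 : allBits (fun k => bif Nat.blt k 90 then chkOrbPos Cfsg.Agent.Lib.ToddCox.O73T.tab L 15 20 90 364 (fun q => orbR (Nat.add 607 q)) k else true) 11 0 = true := by decide +kernel
theorem fx2 : ∀ w ∈ L.drop 21, tabW Cfsg.Agent.Lib.ToddCox.O73T.tab w 20 = 20 := by decide +kernel
theorem lv3_0 : allBits (fun k => bif Nat.blt k 32 then chkOrbPos Cfsg.Agent.Lib.ToddCox.O73T.tab L 21 31 32 364 (fun q => orbR (Nat.add 697 q)) k else true) 11 0 = true := by decide +kernel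
theorem fx3 : ∀ w ∈ L.drop 26, tabW Cfsg.Agent.Lib.ToddCox.O73T.tab w 31 = 31 := by decide +kernel
theorem lv4_0 : allBits (fun k => bif Nat.blt k 9 then chkOrbPos Cfsg.Agent.Lib.ToddCox.O73T.tab L 26 2 9 364 (fun q => orbR (Nat.add 729 q)) k else true) 11 0 = true := by decide +kernel
theorem fx4 : ∀ w ∈ L.drop 29, tabW Cfsg.Agent.Lib.ToddCox.O73T.tab w 2 = 2 := by decide +kernel
theorem lv5_0 : allBits (fun k => bif Nat.blt k 2 then chkOrbPos Cfsg.Agent.Lib.ToddCox.O73T.tab L 29 3 2 364 (fun q => orbR (Nat.add 738 q)) k else true) 11 0 = true := by decide +kernel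
theorem fx5 : ∀ w ∈ L.drop 30, tabW Cfsg.Agent.Lib.ToddCox.O73T.tab w 3 = 3 := by decide +kernel
end Cfsg.Agent.Lib.ToddCox.O73O
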